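import Cfsg.Agent.H15.BF

/-! In a Bender group a rank one subgroup is determined by its involutions at one point and a second point. -/

set_option autoImplicit false
set_option linter.unusedSectionVars false

namespace H6.OT

open Subgroup Cfsg MulAction H15.Bd

universe u

variable {G Ω : Type u} [Group G] [Finite G] [MulAction G Ω] {α γ : Ω} {a c t t' r r' y : G} {L L' : Subgroup G}

/-- the structure equation -/
structure Eqn (α γ : Ω) (c t r : G) : Prop where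
  ord : orderOf t = 2
  sw : t • α = γ
  fx : r • γ = γ
  two : ∃ k, r ^ 2 ^ k = 1
  cen : t • r • α = r • α
  eq : t * (r⁻¹ * t * r) * t⁻¹ = c

theorem Eqn.conj (e : Eqn α γ c t r) {k : G} (h1 : k • α = α) (h2 : k • γ = γ) :
    Eqn α γ (k * c * k⁻¹) (k * t * k⁻¹) (k * r * k⁻¹) := by
  have h3 := inv_smul_eq_iff.2 h1.symm
  have h4 := inv_smul_eq_iff.2 h2.symm
  refine ⟨ord2_conj e.ord k, by rw [mul_smul, mul_smul, h3, e.sw, h2], by rw [mul_smul, mul_smul, h4, e.fx, h2],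
    e.two.imp fun n hn => by rw [conj_pow, hn]; simp, ?_, by rw [← e.eq]; group⟩
  simp only [mul_smul, inv_smul_smul, h3, e.cen]

theorem two_part {x : G} {k : ℕ} (h : Odd (orderOf (x ^ 2 ^ k))) : ∃ j, (x * (x ^ 2 ^ k) ^ j) ^ 2 ^ k = 1 := by
  have hc : Nat.Coprime (2 ^ k) (orderOf (x ^ 2 ^ k)) := (Nat.coprime_two_left.2 h).pow_left k
  obtain ⟨m, hm⟩ := (exists_pow_eq_self_of_coprime (x := (x ^ 2 ^ k)⁻¹) (by rwa [orderOf_inv]))
  obtain ⟨n, hn⟩ : ∃ n : ℕ, (x ^ 2 ^ k) ^ n = (x ^ 2 ^ k)⁻¹ := (mem_powers_iff_mem_zpowers.2 (inv_mem (mem_zpowers _)))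
  refine ⟨n * m, ?_⟩
  rw [Commute.mul_pow ((Commute.refl x).pow_right _ |>.pow_right _), pow_mul, hn, ← pow_mul, mul_comm m, pow_mul, hm,
    mul_inv_cancel]

theorem exists_eqn (h : BS G Ω) (h4 : Four L) (ha : a ∈ Inv G α) (hc : c ∈ Inv G γ) (aL : a ∈ L) (cL : c ∈ L)
    (ne : α ≠ γ) : ∃ t ∈ L, ∃ r, Eqn α γ c t r := by
  have hne : ¬ L ≤ St G γ := fun e => ne (h.center_eq ha (e aL)).symm
  obtain ⟨S0, hS0⟩ := (h.base_orbit h4 hc cL hne).con ⟨γ, mem_orbit_self γ⟩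
  have hS := hS0.map_orbit
  generalize S0.map L.subtype = S at hS
  obtain ⟨t, tL, ot, tα, -⟩ := h.exists_swap_mem ha hc ne aL cL
  have tγ : t • γ = α := by rw [← tα, smul_smul_of_ord ot]
  obtain ⟨ω, hω⟩ := h.exists_center ot
  obtain ⟨n, nL, rfl⟩ := h.exists_smul_eq hc cL hω tL
  obtain ⟨x, hx, e⟩ := hS.trans t tL n nL (tγ ▸ ne) fun e => ne (by rw [← tγ, ← e, hω.2])
  obtain ⟨k, hk⟩ := hS.two x hx
  have k1 := (mem_kerO.1 hk).2 t tL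
  have k2 := (mem_kerO.1 hk).2 1 (one_mem _)
  rw [tγ] at k1 e
  rw [one_smul] at k2
  obtain ⟨j, hj⟩ := two_part (h.odd_ord ne ⟨k1, k2⟩)
  have k3 : (x ^ 2 ^ k) ^ j ∈ D2 G α γ := pow_mem (show _ ∈ D2 G α γ from ⟨k1, k2⟩) j
  have rL : x * (x ^ 2 ^ k) ^ j ∈ L := mul_mem (hS.le hx).1 (pow_mem (pow_mem (hS.le hx).1 _) _)
  have rα : (x * (x ^ 2 ^ k) ^ j) • α = n • γ := by rw [mul_smul, k3.1, e]
  have rγ : (x * (x ^ 2 ^ k) ^ j) • γ = γ := by rw [mul_smul, k3.2]; exact (hS.le hx).2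
  generalize x * (x ^ 2 ^ k) ^ j = r at *
  have E : Eqn α γ _ t r := ⟨ot, tα, rγ, ⟨k, hj⟩, by rw [rα, hω.2], rfl⟩
  have hs : t * (r⁻¹ * t * r) * t⁻¹ ∈ Inv G γ := by
    have := Inv.conj (Inv.conj hω r⁻¹) t
    rwa [← rα, inv_smul_smul, tα, inv_inv] at this
  obtain ⟨k, kL, hk, e⟩ := h.exists_K ot (tγ ▸ ne) tL hs hc
    (mul_mem (mul_mem tL (mul_mem (mul_mem (inv_mem rL) tL) rL)) (inv_mem tL)) cL
  exact ⟨_, mul_mem (mul_mem kL tL) (inv_mem kL), _, e ▸ E.conj (tγ ▸ hk.1.2) hk.1.1⟩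

theorem Eqn.unique [FaithfulSMul G Ω] (h : Base G Ω) (hc : c ∈ Inv G γ) (ne : α ≠ γ) (e : Eqn α γ c t r)
    (e' : Eqn α γ c t' r') : t = t' := by
  obtain ⟨S, hS⟩ := h.con γ
  have := h.trans
  have tγ : t • γ = α := by rw [← e.sw, smul_smul_of_ord e.ord]
  have tγ' : t' • γ = α := by rw [← e'.sw, smul_smul_of_ord e'.ord]
  have m : t' * t ∈ D2 G γ α := ⟨show _ • _ = _ by rw [mul_smul, tγ, e'.sw], show _ • _ = _ by rw [mul_smul, e.sw, tγ']⟩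
  obtain ⟨j, hj⟩ := exists_sq_pow_of_odd (h.bs.odd_ord ne.symm m)
  have km := pow_mem m j
  have ki : t * (t' * t) ^ j * t⁻¹ = ((t' * t) ^ j)⁻¹ := by
    rw [← conj_pow, ← inv_pow, mul_inv_rev, ord2_inv e.ord, ord2_inv e'.ord, mul_assoc, mul_assoc, ord2_mul_self e.ord,
      mul_one]
  generalize (t' * t) ^ j = k at *
  have kt : k * t * k⁻¹ = t' := by
    rw [← ki, ord2_inv e.ord, show k * t * (t * k * t) = k * (t * t) * k * t by group, ord2_mul_self e.ord, mul_one, hj,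
      mul_assoc, ord2_mul_self e.ord, mul_one]
  have E := e.conj km.2 km.1
  rw [kt] at E
  have i1 : ∀ {c r}, Eqn α γ c t' r → r ∈ S := fun E =>
    E.two.elim fun _ hn => hS.mem_of_two h.bs (h.top_not_le γ) (mem_top _) E.fx hn
  have i2 : (r'⁻¹ * (k * r * k⁻¹)) • t • γ = t • γ := by
    rw [tγ, mul_smul, h.bs.center_eq ⟨e'.ord, e'.cen⟩ E.cen, inv_smul_smul]
  have i3 := hS.semi _ (mul_mem (inv_mem (i1 e')) (i1 E)) t (mem_top _) (tγ ▸ ne) i2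
  have i4 : r'⁻¹ * (k * r * k⁻¹) = 1 := eq_of_smul_eq_smul (α := Ω) fun x => by
    obtain ⟨g, rfl⟩ := exists_smul_eq G γ x
    rw [(mem_kerO.1 i3).2 g (mem_top g), one_smul]
  rw [← inv_mul_eq_one.1 i4] at E
  have i5 := h.bs.eq_one_of_K e.ord (tγ ▸ ne) ⟨⟨km.1, tγ ▸ km.2⟩, ki⟩ hc (conj_eq_iff_commute.1 (E.eq.symm.trans e'.eq))
  rw [← kt, i5]; simp

theorem mem_of_inv [FaithfulSMul G Ω] (h : Base G Ω) (ha : a ∈ Inv G α) (hy : y ∈ Inv G α) (hc : c ∈ Inv G γ)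
    (ne : α ≠ γ) (h4 : Four L) (h4' : Four L') (aL : a ∈ L) (cL : c ∈ L) (yL : y ∈ L') (cL' : c ∈ L')
    (hL : ∀ v ∈ L', v ∈ Inv G γ → v ∈ L) : y ∈ L := by
  obtain ⟨t, tL, r, e⟩ := exists_eqn h.bs h4 ha hc aL cL ne
  obtain ⟨t', tL', r', e'⟩ := exists_eqn h.bs h4' hy hc yL cL' ne
  obtain rfl := e.unique h hc ne e'
  have := hL _ (mul_mem (mul_mem tL' yL) (inv_mem tL')) (e.sw ▸ Inv.conj hy t)
  simpa [mul_assoc] using mul_mem (mul_mem (inv_mem tL) this) tL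

end H6.OT
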