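import Cfsg.Agent.H6.Inv

/-! Sets of `p`-transpositions, `p ≥ 5`: elementary lemmas. -/

set_option autoImplicit false

namespace H6.Tp

open Subgroup

variable {G : Type*} [Group G]

theorem cm (g : G) {a b : G} (h : Commute a b) : Commute (g * a * g⁻¹) (g * b * g⁻¹) :=
  h.map (MulAut.conj g)

theorem cm_iff (g : G) {a b : G} : Commute (g * a * g⁻¹) (g * b * g⁻¹) ↔ Commute a b :=
  ⟨fun h => by simpa [mul_assoc] using cm g⁻¹ h, cm g⟩

theorem cmul (g a b : G) : g * (a * b) * g⁻¹ = (g * a * g⁻¹) * (g * b * g⁻¹) := by group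

theorem cinj (g : G) {a b : G} (h : g * a * g⁻¹ = g * b * g⁻¹) : a = b := by simpa using h

theorem cfix {g x : G} (h : Commute g x) : g * x * g⁻¹ = x := conj_eq_iff_commute.2 h

theorem comm_of_sq_odd {w u : G} (hw : Odd (orderOf w)) (h : Commute (w * w) u) : Commute w u := by
  obtain ⟨m, hm⟩ := exists_sq_pow_of_odd hw
  have : w = (w * w) ^ m := by rw [(Commute.refl w).mul_pow, hm]
  rw [this]; exact h.pow_left m

/-- a conjugation invariant set of involutions with products of order `1`, `2` or `p` -/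
structure PT (p : ℕ) (D : Set G) : Prop where
  pp : p.Prime
  p2 : p ≠ 2
  p3 : p ≠ 3
  ord2 : ∀ d ∈ D, orderOf d = 2
  conj : ∀ g : G, ∀ d ∈ D, g * d * g⁻¹ ∈ D
  ord : ∀ a ∈ D, ∀ b ∈ D, ¬ Commute a b → orderOf (a * b) = p

namespace PT

variable {p : ℕ} {D : Set G} (h : PT p D) {a b c d t x y : G}
include h

theorem sq (ha : a ∈ D) : a * a = 1 := ord2_mul_self (h.ord2 a ha)
theorem ll (ha : a ∈ D) (x : G) : a * (a * x) = x := ord2_mul_mul (h.ord2 a ha) x
theorem inv (ha : a ∈ D) : a⁻¹ = a := ord2_inv (h.ord2 a ha)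
theorem ne1 (ha : a ∈ D) : a ≠ 1 := ord2_ne_one (h.ord2 a ha)
theorem podd : Odd p := h.pp.odd_of_ne_two h.p2

theorem odd (ha : a ∈ D) (hb : b ∈ D) (n : ¬ Commute a b) : Odd (orderOf (a * b)) :=
  h.ord a ha b hb n ▸ h.podd

theorem mul_ne (ha : a ∈ D) (hb : b ∈ D) (n : a ≠ b) : a * b ≠ 1 := fun e =>
  n (by rw [← h.inv hb]; exact eq_inv_of_mul_eq_one_left e)

theorem zsq (ha : a ∈ D) (hb : b ∈ D) (c : Commute a b) : (a * b) * (a * b) = 1 := by
  rw [mul_assoc, ← mul_assoc b, ← c.eq, mul_assoc a b, h.sq hb, mul_one, h.sq ha]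

theorem zinv (ha : a ∈ D) (hb : b ∈ D) (c : Commute a b) : (a * b)⁻¹ = a * b :=
  inv_eq_of_mul_eq_one_right (h.zsq ha hb c)

theorem comm_of_pow (ha : a ∈ D) (hb : b ∈ D) {k : ℕ} (e : (a * b) ^ 2 ^ k = 1) : Commute a b := by
  by_contra n
  have := eq_one_of_odd_of_two_pow (h.odd ha hb n) e
  exact n (by rw [(eq_inv_of_mul_eq_one_left this : a = b⁻¹)]; exact (Commute.refl b).inv_left)

theorem comm_of_pg (ha : a ∈ D) (hb : b ∈ D) {Q : Subgroup G} (hQ : IsPGroup 2 Q) (e : a * b ∈ Q) :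
    Commute a b := by
  obtain ⟨k, hk⟩ := IsPGroup_pow_eq_one hQ e
  exact h.comm_of_pow ha hb hk

theorem refl_mem {u : G} (ha : a ∈ D) (hu : a * u * a⁻¹ = u⁻¹) (ho : Odd (orderOf u)) : u * a ∈ D := by
  obtain ⟨m, hm⟩ := exists_sq_pow_of_odd ho
  have e := conj_pow_of_inverts hu m
  have : u ^ m * a * (u ^ m)⁻¹ = u * a := by
    rw [← e, ← hm, h.inv ha]; simp only [mul_assoc, h.ll ha, hm]
    rw [← mul_assoc (u ^ m), hm]
  exact this ▸ h.conj _ a ha

theorem ex_swap (ha : a ∈ D) (hb : b ∈ D) (n : ¬ Commute a b) : ∃ t ∈ D, t * a * t⁻¹ = b := by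
  obtain ⟨k, hk⟩ := exists_pow_conj_of_odd (h.sq ha) (h.sq hb) (h.odd ha hb n)
  refine ⟨(a * b) ^ k * a, h.refl_mem ha (conj_pow_of_inverts (inv_conj_mul (h.sq ha) (h.sq hb)) k)
    (odd_orderOf_pow (h.odd ha hb n) k), ?_⟩
  refine Eq.trans ?_ hk
  group

theorem nc_conj (ht : t ∈ D) (ha : a ∈ D) (n : ¬ Commute t a) : ¬ Commute a (t * a * t⁻¹) := fun c => by
  apply n
  refine h.comm_of_pow ht ha (k := 2) ?_
  have := h.zsq (h.conj t a ha) ha c.symm
  rw [h.inv ht] at this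
  rw [← this, show 2 ^ 2 = 4 from rfl]; simp only [pow_succ, pow_zero, one_mul, mul_assoc]

theorem swap_uniq {s : G} (ht : t ∈ D) (hs : s ∈ D) (ha : a ∈ D) (n : ¬ Commute t a)
    (e : t * a * t⁻¹ = s * a * s⁻¹) : t = s := by
  have n' : ¬ Commute s a := fun c => n (conj_eq_iff_commute.1 (e.trans (cfix c)))
  have e2 : (t * a) * (t * a) = (s * a) * (s * a) := by
    rw [h.inv ht, h.inv hs] at e
    rw [← mul_assoc, e, mul_assoc (s * a)]
  obtain ⟨k, hk⟩ := h.podd
  have key : ∀ w : G, orderOf w = p → w = (w * w) ^ (k + 1) := fun w hw => by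
    rw [← pow_two, ← pow_mul, show 2 * (k + 1) = p + 1 by omega, pow_succ, ← hw, pow_orderOf_eq_one, one_mul]
  have := (key _ (h.ord t ht a ha n)).trans (e2 ▸ (key _ (h.ord s hs a ha n')).symm)
  exact mul_right_cancel this

/-- an element commuting with `a` and `a ^ t` commutes with `t` -/
theorem comm_swap {c : G} (ht : t ∈ D) (ha : a ∈ D) (n : ¬ Commute t a) (h1 : Commute c a)
    (h2 : Commute c (t * a * t⁻¹)) : Commute c t := by
  refine conj_eq_iff_commute.1 (h.swap_uniq ht (h.conj c t ht) ha n ?_).symm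
  calc t * a * t⁻¹ = c * (t * a * t⁻¹) * c⁻¹ := (cfix h2).symm
    _ = c * t * c⁻¹ * (c * a * c⁻¹) * (c * t * c⁻¹)⁻¹ := by group
    _ = _ := by rw [cfix h1]

/-- `C_D(ab) = C_D(a) ∩ C_D(b)` -/
theorem comm_mul (ha : a ∈ D) (hb : b ∈ D) (hd : d ∈ D) (c : Commute a b) (ne : a ≠ b)
    (e : Commute d (a * b)) : Commute d a := by
  by_contra n
  have he := h.conj d a ha
  have hf := h.conj d b hb
  set a' := d * a * d⁻¹ with ha'
  set b' := d * b * d⁻¹ with hb'
  have e1 : a' * b' = a * b := by rw [ha', hb', ← cmul, cfix e]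
  have e2 : a * a' = b * b' := by
    calc a * a' = a * (a' * b') * b' := by simp only [mul_assoc, h.sq hf, mul_one]
      _ = b * b' := by rw [e1, h.ll ha]
  have n1 := h.nc_conj hd ha n
  have i1 := inv_conj_mul (h.sq ha) (h.sq he)
  have i2 := inv_conj_mul (h.sq hb) (h.sq hf)
  rw [← e2] at i2
  have c1 : Commute (b * a) (a * a') := by
    refine conj_eq_iff_commute.1 ?_
    calc b * a * (a * a') * (b * a)⁻¹ = b * (a * (a * a') * a⁻¹) * b⁻¹ := by group
      _ = (b * (a * a') * b⁻¹)⁻¹ := by rw [i1]; group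
      _ = _ := by rw [i2, inv_inv]
  have e3 : b * a' = (b * a) * (a * a') := by simp only [mul_assoc, h.ll ha]
  have z2 := h.zsq hb ha c.symm
  by_cases c2 : Commute b a'
  · have := h.zsq hb he c2
    rw [e3, ← pow_two, c1.mul_pow, pow_two, z2, one_mul] at this
    exact n1 (h.comm_of_pow ha he (k := 1) this)
  · have h1 := h.ord b hb a' he c2
    have h2 := pow_orderOf_eq_one (b * a')
    rw [h1, e3, c1.mul_pow, ← h.ord a ha a' he n1, pow_orderOf_eq_one, mul_one, h.ord a ha a' he n1] at h2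
    obtain ⟨k, hk⟩ := h.podd
    rw [hk, pow_succ, pow_mul, pow_two, z2, one_pow, one_mul] at h2
    exact h.mul_ne hb ha ne.symm h2

theorem comm_mul' (ha : a ∈ D) (hb : b ∈ D) (hd : d ∈ D) (c : Commute a b) (ne : a ≠ b)
    (e : Commute d (a * b)) : Commute d b :=
  h.comm_mul hb ha hd c.symm ne.symm (c.eq ▸ e)

theorem comm_of_line (ha : a ∈ D) (hb : b ∈ D) (hd : d ∈ D) (n : ¬ Commute a b)
    (e : Commute d (a * b)) : Commute d a := by
  by_contra n1
  have i1 := inv_conj_mul (h.sq ha) (h.sq hb)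
  have i2 : d * a * (a * b) * (d * a)⁻¹ = (a * b)⁻¹ := by
    calc d * a * (a * b) * (d * a)⁻¹ = d * (a * (a * b) * a⁻¹) * d⁻¹ := by group
      _ = _ := by rw [i1, cfix e.inv_right]
  have c1 : Commute (d * a * (d * a)) (a * b) := by
    refine conj_eq_iff_commute.1 ?_
    calc d * a * (d * a) * (a * b) * (d * a * (d * a))⁻¹
        = d * a * (d * a * (a * b) * (d * a)⁻¹) * (d * a)⁻¹ := by group
      _ = d * a * (a * b)⁻¹ * (d * a)⁻¹ := by rw [i2]
      _ = (d * a * (a * b) * (d * a)⁻¹)⁻¹ := by group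
      _ = _ := by rw [i2, inv_inv]
  have c2 := cfix (comm_of_sq_odd (h.odd hd ha n1) c1)
  rw [i2] at c2
  exact n (h.comm_of_pow ha hb (k := 1) (by rw [pow_one, pow_two]; nth_rw 1 [← c2]; simp))

/-- the four-group configuration forcing `p = 3` -/
theorem p1 (ha : a ∈ D) (hb : b ∈ D) (hc : c ∈ D) (hd : d ∈ D) (c1 : Commute a b) (ne : a ≠ b)
    (c2 : Commute c d) (e1 : c * d * a * (c * d)⁻¹ = b) (e2 : a * b * c * (a * b)⁻¹ = d) : False := by
  have z1 := h.zsq ha hb c1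
  have z2 := h.zsq hc hd c2
  have zi := h.zinv ha hb c1
  have zi' := h.zinv hc hd c2
  set z := a * b with hz
  set z' := c * d with hz'
  have az : a * z * a⁻¹ = z := cfix ((Commute.refl a).mul_right c1)
  have cz : c * z' * c⁻¹ = z' := cfix ((Commute.refl c).mul_right c2)
  have e3 : c * z * c⁻¹ = z * z' := by
    rw [hz', c2.eq, ← e2, zi, h.inv hc]; simp only [← mul_assoc, z1, one_mul]
  have e4 : a * z' * a⁻¹ = z' * z := by
    rw [hz, c1.eq, ← e1, zi', h.inv ha]; simp only [← mul_assoc, z2, one_mul]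
  have zz : z * z' = z' * z := by
    have : (z * z') * (z * z') = 1 := by rw [← e3, ← cmul, z1]; simp
    rw [← inv_eq_of_mul_eq_one_right this, mul_inv_rev, zi, zi']
  have f : ∀ x, a * c * x * (a * c)⁻¹ = a * (c * x * c⁻¹) * a⁻¹ := fun x => by group
  have w1 : a * c * z * (a * c)⁻¹ = z' := by
    rw [f, e3, cmul, az, e4, ← mul_assoc, zz, mul_assoc, z1, mul_one]
  have w2 : a * c * z' * (a * c)⁻¹ = z' * z := by rw [f, cz, e4]
  have w3 : Commute ((a * c) ^ 3) z := by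
    refine conj_eq_iff_commute.1 ?_
    calc (a * c) ^ 3 * z * ((a * c) ^ 3)⁻¹
        = a * c * (a * c * (a * c * z * (a * c)⁻¹) * (a * c)⁻¹) * (a * c)⁻¹ := by
          simp only [pow_succ, pow_zero, one_mul, mul_inv_rev, mul_assoc]
      _ = z := by rw [w1, w2, cmul, w1, w2, ← zz, mul_assoc, z2, mul_one]
  have cop : (orderOf (a * c)).Coprime 3 := by
    by_cases c3 : Commute a c
    · exact Nat.Coprime.coprime_dvd_left (orderOf_dvd_of_pow_eq_one (n := 2)
        (by rw [pow_two, h.zsq ha hc c3])) (by norm_num)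
    · rw [h.ord a ha c hc c3]; exact (Nat.coprime_primes h.pp Nat.prime_three).2 h.p3
  obtain ⟨m, hm⟩ := exists_pow_eq_self_of_coprime cop.symm
  have w4 : Commute (a * c) z := hm ▸ w3.pow_left m
  rw [cfix w4] at w1
  rw [← w1, cfix ((Commute.refl a).mul_left c1.symm)] at e1
  exact ne e1

theorem ex_nc2 (cls : ∀ a ∈ D, ∀ b ∈ D, IsConj a b) (gen : closure D = ⊤) (ha : a ∈ D) (hb : b ∈ D)
    (ne : a ≠ b) : ∃ x ∈ D, ¬ Commute x a ∧ ¬ Commute x b := by
  have key : ∀ g : G, (∃ x ∈ D, ¬ Commute x a) → ∃ x ∈ D, ¬ Commute x a ∧ ¬ Commute x (g * a * g⁻¹) := by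
    rintro g ⟨x, hx, n⟩
    have hg : g ∈ closure D := gen ▸ mem_top g
    induction hg using closure_induction_left with
    | one => exact ⟨x, hx, n, by simpa using n⟩
    | mul_left d hd g _ ih =>
      obtain ⟨y, hy, n1, n2⟩ := ih
      rw [show d * g * a * (d * g)⁻¹ = d * (g * a * g⁻¹) * d⁻¹ by group]
      by_cases c : Commute d a
      · exact ⟨d * y * d⁻¹, h.conj d y hy, fun e => n1 ((cm_iff d).1 (by rwa [cfix c])),
          fun e => n2 ((cm_iff d).1 e)⟩
      · by_cases c2 : Commute d (g * a * g⁻¹)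
        · exact ⟨y, hy, n1, by rwa [cfix c2]⟩
        · exact ⟨d, hd, c, fun e => c2 ((cm_iff d).1 (by rwa [cfix (Commute.refl d)]))⟩
    | inv_mul_cancel d hd g _ ih =>
      obtain ⟨y, hy, n1, n2⟩ := ih
      rw [h.inv hd, show d * g * a * (d * g)⁻¹ = d * (g * a * g⁻¹) * d⁻¹ by group]
      by_cases c : Commute d a
      · exact ⟨d * y * d⁻¹, h.conj d y hy, fun e => n1 ((cm_iff d).1 (by rwa [cfix c])),
          fun e => n2 ((cm_iff d).1 e)⟩
      · by_cases c2 : Commute d (g * a * g⁻¹)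
        · exact ⟨y, hy, n1, by rwa [cfix c2]⟩
        · exact ⟨d, hd, c, fun e => c2 ((cm_iff d).1 (by rwa [cfix (Commute.refl d)]))⟩
  obtain ⟨g, rfl⟩ := isConj_iff.1 (cls a ha b hb)
  refine key g ?_
  by_contra! hc
  have : g ∈ centralizer ({a} : Set G) := by
    have : closure D ≤ centralizer ({a} : Set G) := (closure_le _).2 fun x hx => mem_cent_iff_commute.2 (hc x hx)
    exact this (gen ▸ mem_top g)
  exact ne (cfix (mem_cent_iff_commute.1 this)).symm

end PT

end H6.Tp
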