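import Cfsg.Agent.H6.PT1
import Cfsg.Agent.H6.Baer
import Cfsg.Agent.H6.ZS
import Cfsg.Agent.H1.Cores

/-! Sets of `p`-transpositions, `p ≥ 5`: the minimal counterexample, first part. -/

set_option autoImplicit false
set_option linter.unusedSectionVars false

namespace H6.Tp

open Subgroup Cfsg

variable {G : Type*} [Group G]

/-- `a` and `b` commute with the same members of `D` -/
def V (D : Set G) (a b : G) : Prop := ∀ d ∈ D, Commute d a ↔ Commute d b

namespace V
variable {D : Set G} {a b c : G}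
theorem refl (a : G) : V D a a := fun _ _ => Iff.rfl
theorem symm (h : V D a b) : V D b a := fun d hd => (h d hd).symm
theorem trans (h : V D a b) (h' : V D b c) : V D a c := fun d hd => (h d hd).trans (h' d hd)
theorem comm (h : V D a b) (ha : a ∈ D) : Commute a b := (h a ha).1 (Commute.refl a)
theorem comm2 (h : V D a b) (h' : V D a c) (hb : b ∈ D) : Commute b c := (h.symm.trans h').comm hb
end V

theorem PT.vconj {p : ℕ} {D : Set G} (h : PT p D) {a b : G} (g : G) (v : V D a b) :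
    V D (g * a * g⁻¹) (g * b * g⁻¹) := fun d hd => by
  have := v _ (h.conj g⁻¹ d hd)
  rw [← cm_iff g, ← cm_iff g (b := b)] at this
  simpa [mul_assoc] using this

theorem conj_mem_n {N : Subgroup G} {g x : G} (hg : g ∈ normalizer (N : Set G)) (hx : x ∈ N) :
    g * x * g⁻¹ ∈ N := (mem_normalizer_iff.1 hg x).1 hx

theorem czz {x z : G} (z2 : z * z = 1) (c : Commute x (z * x * z⁻¹)) : Commute (x * (z * x * z⁻¹)) z := by
  refine (conj_eq_iff_commute.1 ?_).symm
  have zi : z⁻¹ = z := inv_eq_of_mul_eq_one_right z2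
  have ll : ∀ y, z * (z * y) = y := fun y => by rw [← mul_assoc, z2, one_mul]
  rw [cmul, c.eq, zi]
  simp only [mul_assoc, ll, z2, mul_one]

/-- `N` behaves like a `2`-group -/
def Nice (D : Set G) (N : Subgroup G) : Prop :=
  ∀ c ∈ D, ∀ d ∈ D, ∀ y ∈ D, Commute c d → c ≠ d → c * d ∈ N → ¬ Commute y c → ¬ Commute y d →
    y ∈ normalizer (N : Set G) → Commute y (c * d * y * (c * d)⁻¹)

theorem comm_mem_n {N : Subgroup G} {y s : G} (hy : y ∈ normalizer (N : Set G)) (hs : s ∈ N) (i : y⁻¹ = y) :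
    y * (s * y * s⁻¹) ∈ N := by
  have := N.mul_mem (conj_mem_n hy hs) (N.inv_mem hs)
  rw [i] at this
  simpa only [mul_assoc] using this

theorem PT.nice {p : ℕ} {D : Set G} (h : PT p D) {Q : Subgroup G} (hQ : IsPGroup 2 Q) : Nice D Q :=
  fun _ _ _ _ y hy _ _ hz _ _ hn => h.comm_of_pg hy (h.conj _ y hy) hQ (comm_mem_n hn hz (h.inv hy))

/-- the minimal counterexample -/
structure MC (p : ℕ) (D : Set G) : Prop extends PT p D where
  cls : ∀ a ∈ D, ∀ b ∈ D, IsConj a b
  gen : closure D = ⊤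
  o2 : pCore 2 G = ⊥
  K : ∀ a ∈ D, ∀ b ∈ D, ∀ x ∈ D, Commute a b → ¬ Commute x a → ¬ Commute x b →
    closure ({a, b, x} : Set G) ≠ ⊤ → ∃ Q : Subgroup G, IsPGroup 2 Q ∧ a * b ∈ Q ∧
      a ∈ normalizer (Q : Set G) ∧ b ∈ normalizer (Q : Set G) ∧ x ∈ normalizer (Q : Set G)

namespace MC

variable [Finite G] {p : ℕ} {D : Set G} (h : MC p D) {a b c d t x y : G}
include h

theorem norm_ne {Q : Subgroup G} (hQ : IsPGroup 2 Q) (n : Q ≠ ⊥) : normalizer (Q : Set G) ≠ ⊤ := fun e => by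
  have := normalizer_eq_top_iff.1 e
  exact n (eq_bot_iff.2 (h.o2 ▸ H1.le_pCore hQ))

theorem prop_of_le {Y : Subgroup G} (hY : Y ≠ ⊤) (h1 : a ∈ Y) (h2 : b ∈ Y) (h3 : x ∈ Y) :
    closure ({a, b, x} : Set G) ≠ ⊤ := fun e => hY (eq_top_iff.2 (e ▸ (closure_le _).2 (by
      rintro _ (rfl | rfl | rfl) <;> assumption)))

theorem cent_ne {s : G} (hs : s * s = 1) (s1 : s ≠ 1) : centralizer ({s} : Set G) ≠ ⊤ := fun e => by
  refine h.norm_ne (isPGroup_zpowers_ord2 hs) (by simpa using s1) (eq_top_iff.2 fun g _ => ?_)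
  have : Commute g s := mem_cent_iff_commute.1 (e ▸ mem_top g)
  refine mem_normalizer_of_conj_le fun y hy => ?_
  obtain ⟨k, rfl⟩ := hy
  rw [cfix (this.zpow_right k)]
  exact ⟨k, rfl⟩

theorem prop_of_cent {s : G} (hs : s * s = 1) (s1 : s ≠ 1) (h1 : Commute a s) (h2 : Commute b s)
    (h3 : Commute x s) : closure ({a, b, x} : Set G) ≠ ⊤ :=
  h.prop_of_le (h.cent_ne hs s1) (mem_cent_iff_commute.2 h1) (mem_cent_iff_commute.2 h2)
    (mem_cent_iff_commute.2 h3)

theorem l4a (ha : a ∈ D) (hb : b ∈ D) (hc : c ∈ D) (hd : d ∈ D) (c1 : Commute a b) (ne : a ≠ b)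
    (c2 : Commute c d) (e : a * b = c * d) (n1 : b ≠ c) (n2 : b ≠ d) (hy : y ∈ D) (ya : Commute y a) :
    Commute y b := by
  by_contra yb
  have cz : Commute c (a * b) := e ▸ (Commute.refl c).mul_right c2
  have dz : Commute d (a * b) := e ▸ c2.symm.mul_right (Commute.refl d)
  have ca := h.comm_mul ha hb hc c1 ne cz
  have cb := h.comm_mul' ha hb hc c1 ne cz
  have da := h.comm_mul ha hb hd c1 ne dz
  have db := h.comm_mul' ha hb hd c1 ne dz
  have e1 : a * c = b * d := by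
    calc a * c = a * (c * d) * d := by simp only [mul_assoc, h.sq hd, mul_one]
      _ = b * d := by rw [← e, h.ll ha]
  have e2 : a * d = b * c := by
    calc a * d = a * (d * c) * c := by simp only [mul_assoc, h.sq hc, mul_one]
      _ = b * c := by rw [← c2.eq, ← e, h.ll ha]
  have yc : ¬ Commute y c := fun k => yb (h.comm_mul hb hd hy db.symm n2 (e1 ▸ ya.mul_right k))
  have yd : ¬ Commute y d := fun k => yb (h.comm_mul hb hc hy cb.symm n1 (e2 ▸ ya.mul_right k))
  obtain ⟨Q, hQ, hz, -, -, hn⟩ := h.K c hc d hd y hy c2 yc yd (h.prop_of_cent (h.sq ha) (h.ne1 ha) ca da ya)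
  have h1 := Q.mul_mem hz (conj_mem_n hn hz)
  rw [← e, cmul, cfix ya, c1.eq, mul_assoc, h.ll ha] at h1
  exact h.nc_conj hy hb yb (h.comm_of_pg hb (h.conj y b hb) hQ h1)

theorem l4 (ha : a ∈ D) (hb : b ∈ D) (hc : c ∈ D) (hd : d ∈ D) (c1 : Commute a b) (ne : a ≠ b)
    (c2 : Commute c d) (e : a * b = c * d) (n1 : a ≠ c) (n2 : b ≠ c) : V D a b := by
  have n3 : a ≠ d := fun k => n2 (by rw [k, c2.eq] at e; exact mul_left_cancel e)
  have n4 : b ≠ d := fun k => n1 (by rw [k] at e; exact mul_right_cancel e)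
  exact fun y hy => ⟨h.l4a ha hb hc hd c1 ne c2 e n2 n4 hy,
    h.l4a hb ha hc hd c1.symm ne.symm c2 (c1.eq ▸ e) n1 n3 hy⟩

/-- unique factorisation -/
theorem f1 (ha : a ∈ D) (hb : b ∈ D) (hc : c ∈ D) (hd : d ∈ D) (c1 : Commute a b) (ne : a ≠ b)
    (nv : ¬ V D a b) (c2 : Commute c d) (e : a * b = c * d) : c = a ∨ c = b := by
  by_contra! k
  exact nv (h.l4 ha hb hc hd c1 ne c2 e k.1.symm k.2.symm)

theorem l5a {N : Subgroup G} (hN : Nice D N) (ha : a ∈ D) (hb : b ∈ D) (hx : x ∈ D) (c1 : Commute a b)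
    (ne : a ≠ b) (xa : ¬ Commute x a) (xb : ¬ Commute x b) (hz : a * b ∈ N)
    (na : a ∈ normalizer (N : Set G)) (nx : x ∈ normalizer (N : Set G)) : V D a b := by
  have az : Commute (a * b) a := (Commute.refl a).mul_left c1.symm
  have z2 := h.zsq ha hb c1
  have zi := h.zinv ha hb c1
  have c2 := hN a ha b hb x hx c1 ne hz xa xb nx
  have hz' := comm_mem_n nx hz (h.inv hx)
  set z := a * b with hzz
  have hx' := h.conj z x hx
  set x' := z * x * z⁻¹ with hxx
  have n2 : x ≠ x' := fun e => xa (h.comm_mul ha hb hx c1 ne (conj_eq_iff_commute.1 e.symm).symm)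
  have ax' : ¬ Commute a x' := fun k => xa (((cm_iff z).1 (by rwa [cfix az])).symm)
  have c3 := hN x hx x' hx' a ha c2 n2 hz' (fun k => xa k.symm) ax' na
  have zz : Commute (x * x') z := czz z2 c2
  set z' := x * x' with hz'z
  have e : a * b = (z' * a * z'⁻¹) * (z' * b * z'⁻¹) := by rw [← cmul, ← hzz, cfix zz]
  refine h.l4 ha hb (h.conj z' a ha) (h.conj z' b hb) c1 ne (cm z' c1) e (fun k => ?_) (fun k => ?_)
  · exact xa (h.comm_mul hx hx' ha c2 n2 (conj_eq_iff_commute.1 k.symm).symm).symm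
  · exact h.p1 ha hb hx hx' c1 ne c2 k.symm rfl

theorem l5 {N : Subgroup G} (hN : Nice D N) (ha : a ∈ D) (hb : b ∈ D) (hx : x ∈ D) (c1 : Commute a b)
    (ne : a ≠ b) (xa : ¬ Commute x a) (xb : ¬ Commute x b) (hz : a * b ∈ N)
    (na : a ∈ normalizer (N : Set G)) (nx : x ∈ normalizer (N : Set G)) :
    V D x (a * b * x * (a * b)⁻¹) := by
  have az : Commute (a * b) a := (Commute.refl a).mul_left c1.symm
  have hx' := h.conj (a * b) x hx
  refine h.l5a hN hx hx' ha (hN a ha b hb x hx c1 ne hz xa xb nx)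
    (fun e => xa (h.comm_mul ha hb hx c1 ne (conj_eq_iff_commute.1 e.symm).symm)) (fun k => xa k.symm)
    (fun k => xa (((cm_iff (a * b)).1 (by rwa [cfix az])).symm)) (comm_mem_n nx hz (h.inv hx)) nx na

/-- a proper triple -/
theorem vv (ha : a ∈ D) (hb : b ∈ D) (hx : x ∈ D) (c1 : Commute a b) (ne : a ≠ b) (xa : ¬ Commute x a)
    (xb : ¬ Commute x b) (pr : closure ({a, b, x} : Set G) ≠ ⊤) :
    V D a b ∧ V D x (a * b * x * (a * b)⁻¹) := by
  obtain ⟨Q, hQ, hz, na, -, nx⟩ := h.K a ha b hb x hx c1 xa xb pr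
  exact ⟨h.l5a (h.nice hQ) ha hb hx c1 ne xa xb hz na nx, h.l5 (h.nice hQ) ha hb hx c1 ne xa xb hz na nx⟩

theorem no_ag (ha : a ∈ D) (hb : b ∈ D) (ne : a ≠ b) (v : V D a b)
    (H : ∀ c ∈ D, ∀ d ∈ D, ∀ x ∈ D, V D c d → c ≠ d → ¬ Commute x c → V D x (c * d * x * (c * d)⁻¹)) :
    False := by
  have c1 := v.comm ha
  have z2 := h.zsq ha hb c1
  obtain ⟨P⟩ : Nonempty (Sylow 2 G) := inferInstance
  have key := baer_suzuki_elt (x := a * b) (fun g => ?_) P
  · have : (P : Subgroup G).normalCore ≤ ⊥ := h.o2 ▸ H1.le_pCore (P.2.to_le (normalCore_le _))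
    exact h.mul_ne ha hb ne (this key)
  have hc := h.conj g a ha
  have hd := h.conj g b hb
  have v' := h.vconj g v
  have ne' : g * a * g⁻¹ ≠ g * b * g⁻¹ := fun e => ne (cinj g e)
  rw [cmul]
  set c := g * a * g⁻¹
  set d := g * b * g⁻¹
  have c2 := v'.comm hc
  have z3 := h.zsq hc hd c2
  by_cases ac : Commute a c
  · have ad := (v' a ha).1 ac
    have bc := (v c hc).1 ac.symm
    have bd := (v d hd).1 ad.symm
    exact isPGroup_closure_commute z2 z3 ((ac.mul_right ad).mul_left (bc.symm.mul_right bd.symm))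
  · have v1 := H c hc d hd a ha v' ne' ac
    have v2 := v.trans (H c hc d hd b hb v' ne' fun k => ac ((v c hc).2 k.symm).symm)
    have ha' := h.conj (c * d) a ha
    have hb' := h.conj (c * d) b hb
    refine isPGroup_closure_pair z2 z3 (k := 2) ?_
    have e : (a * b * (c * d)) ^ 2 = (a * b) * ((c * d * a * (c * d)⁻¹) * (c * d * b * (c * d)⁻¹)) := by
      rw [← cmul (c * d) a b, h.zinv hc hd c2, pow_two]; simp only [mul_assoc]
    have c3 : Commute (a * b) ((c * d * a * (c * d)⁻¹) * (c * d * b * (c * d)⁻¹)) :=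
      ((v1.comm ha).mul_right (v2.comm ha)).mul_left ((v.comm2 v1 hb).mul_right (v.comm2 v2 hb))
    rw [show 2 ^ 2 = 2 * 2 from rfl, pow_mul, e, c3.mul_pow, pow_two, pow_two, z2,
      h.zsq ha' hb' (v1.comm2 v2 ha'), one_mul]

/-- the case of a normal subgroup containing all products of commuting members -/
theorem no_nice {N : Subgroup G} [N.Normal] (hN : Nice D N)
    (H : ∀ c ∈ D, ∀ d ∈ D, Commute c d → c * d ∈ N) (ha : a ∈ D) (hb : b ∈ D) (c1 : Commute a b)
    (ne : a ≠ b) : False := by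
  have nn : ∀ g : G, g ∈ normalizer (N : Set G) := fun g => le_normalizer_of_normal (mem_top g)
  obtain ⟨x, hx, xa, xb⟩ := h.ex_nc2 h.cls h.gen ha hb ne
  refine h.no_ag ha hb ne (h.l5a hN ha hb hx c1 ne xa xb (H a ha b hb c1) (nn _) (nn _))
    fun c hc d hd y hy v n k => ?_
  exact h.l5 hN hc hd hy (v.comm hc) n k (fun e => k ((v y hy).2 e)) (H c hc d hd (v.comm hc)) (nn _) (nn _)

end MC

/-- a set of pairwise commuting members of `D` -/
def Clq (D E : Set G) : Prop := E ⊆ D ∧ ∀ a ∈ E, ∀ b ∈ E, Commute a b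

theorem closure_sq {E : Set G} (h1 : ∀ a ∈ E, a * a = 1) (h2 : ∀ a ∈ E, ∀ b ∈ E, Commute a b) {x : G}
    (hx : x ∈ closure E) : x * x = 1 ∧ ∀ y ∈ closure E, Commute x y := by
  have c : ∀ x ∈ closure E, ∀ y ∈ closure E, Commute x y := fun x hx y hy =>
    closure_induction₂ (p := fun x y _ _ => Commute x y) (fun a b ha hb => h2 a ha b hb) (fun _ _ => Commute.one_left _)
      (fun _ _ => Commute.one_right _) (fun _ _ _ _ _ _ => Commute.mul_left) (fun _ _ _ _ _ _ => Commute.mul_right)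
      (fun _ _ _ _ => Commute.inv_left) (fun _ _ _ _ => Commute.inv_right) hx hy
  refine ⟨?_, c x hx⟩
  induction hx using closure_induction with
  | mem x hx => exact h1 x hx
  | one => simp
  | mul x y hx hy h3 h4 => rw [← pow_two, (c x hx y hy).mul_pow, pow_two, pow_two, h3, h4, one_mul]
  | inv x hx h3 => rw [← mul_inv_rev, h3, inv_one]

theorem pg_closure {E : Set G} (h1 : ∀ a ∈ E, a * a = 1) (h2 : ∀ a ∈ E, ∀ b ∈ E, Commute a b) :
    IsPGroup 2 (closure E) :=
  isPGroup_of_forall fun x hx => ⟨1, by rw [pow_one, pow_two, (closure_sq h1 h2 hx).1]⟩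

theorem comm_of_prod {l : List G} (nd : l.Nodup) (hc : ∀ a ∈ l, ∀ b ∈ l, Commute a b) {f y : G}
    (hf : f ∈ l) (h1 : ∀ b ∈ l, b ≠ f → Commute y b) (h2 : Commute y l.prod) : Commute y f := by
  classical
  have pe := List.perm_cons_erase hf
  have pw : l.Pairwise Commute := List.pairwise_iff_forall_sublist.2 fun {a b} hs =>
    hc a (hs.subset (by simp)) b (hs.subset (by simp))
  rw [pe.prod_eq' pw, List.prod_cons] at h2
  have h3 : Commute y (l.erase f).prod := Commute.list_prod_right _ _ fun b hb =>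
    h1 b (List.mem_of_mem_erase hb) ((nd.mem_erase_iff.1 hb).1)
  simpa using h2.mul_right h3.inv_right

namespace MC

variable [Finite G] {p : ℕ} {D : Set G} (h : MC p D) {a b c d t x y : G}
include h

theorem f2 (hA : ∀ a ∈ D, ∀ b ∈ D, V D a b → a = b) {s : G} (hs : s * s = 1) (s1 : s ≠ 1) (ha : a ∈ D)
    (hb : b ∈ D) (hx : x ∈ D) (c1 : Commute a b) (ne : a ≠ b) (h1 : Commute a s) (h2 : Commute b s)
    (h3 : Commute x s) (xa : ¬ Commute x a) : Commute x b := by
  by_contra xb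
  exact ne (hA a ha b hb (h.vv ha hb hx c1 ne xa xb (h.prop_of_cent hs s1 h1 h2 h3)).1)

theorem f4 (ha : a ∈ D) (hb : b ∈ D) (hc : c ∈ D) (hd : d ∈ D) (c1 : Commute a b) (ne : a ≠ b)
    (nv : ¬ V D a b) (c2 : Commute c d) (ne2 : c ≠ d) (cz : Commute (c * d) (a * b))
    (e : a * b * c * (a * b)⁻¹ = d) : False := by
  rcases h.f1 ha hb (h.conj (c * d) a ha) (h.conj (c * d) b hb) c1 ne nv (cm _ c1)
    (by rw [← cmul, cfix cz]) with k | k
  · have k1 := h.comm_mul hc hd ha c2 ne2 (conj_eq_iff_commute.1 k).symm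
    have k2 : Commute (c * d) b := by simpa [h.ll ha] using (conj_eq_iff_commute.1 k).mul_right cz
    have k3 := h.comm_mul hc hd hb c2 ne2 k2.symm
    rw [cfix (k1.mul_left k3)] at e
    exact ne2 e
  · exact h.p1 ha hb hc hd c1 ne c2 k e

theorem caseA (hO : pPrimeCore 2 G = ⊥) (hA : ∀ a ∈ D, ∀ b ∈ D, V D a b → a = b) (ha : a ∈ D)
    (hb : b ∈ D) (c1 : Commute a b) (ne : a ≠ b) : False := by
  obtain ⟨E, hE0, hE⟩ := Finite.exists_le_maximal (p := Clq D) (a := ({a, b} : Set G))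
    ⟨by rintro _ (rfl | rfl) <;> assumption, by
      rintro _ (rfl | rfl) _ (rfl | rfl)
      exacts [Commute.refl _, c1, c1.symm, Commute.refl _]⟩
  have aE : a ∈ E := hE0 (by simp)
  have bE : b ∈ E := hE0 (by simp)
  obtain ⟨ED, EC⟩ := hE.prop
  have mx : ∀ y ∈ D, (∀ f ∈ E, Commute y f) → y ∈ E := fun y hy k => by
    refine hE.2 (y := insert y E) ⟨Set.insert_subset hy ED, ?_⟩ (Set.subset_insert _ _) (by simp)
    rintro _ (rfl | h1) _ (rfl | h2)
    exacts [Commute.refl _, k _ h2, (k _ h1).symm, EC _ h1 _ h2]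
  obtain ⟨l, nd, hl⟩ : ∃ l : List G, l.Nodup ∧ ∀ x, x ∈ l ↔ x ∈ E :=
    ⟨(E.toFinite.toFinset).toList, Finset.nodup_toList _, by simp⟩
  have lc : ∀ a ∈ l, ∀ b ∈ l, Commute a b := fun a ha b hb => EC a ((hl a).1 ha) b ((hl b).1 hb)
  have eA : l.prod ∈ closure E := list_prod_mem fun x hx => subset_closure ((hl x).1 hx)
  obtain ⟨e2, ec⟩ := closure_sq (fun a ha => h.sq (ED ha)) EC eA
  have ce : ∀ f ∈ E, Commute f l.prod := fun f hf => (ec f (subset_closure hf)).symm
  -- `e ≠ 1`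
  have key : ∀ a ∈ E, ∀ b ∈ E, a ≠ b → ∀ c ∈ D, Commute c a → ¬ Commute c b → l.prod ≠ 1 := by
    intro a aE b bE ne c hc ca cb e
    refine cb (comm_of_prod nd lc ((hl b).2 bE) (fun f hf n => ?_) (e ▸ Commute.one_right c))
    have fE := (hl f).1 hf
    exact h.f2 hA (h.sq (ED aE)) (h.ne1 (ED aE)) (ED bE) (ED fE) hc (EC b bE f fE) n.symm (EC b bE a aE)
      (EC f fE a aE) ca cb
  have e1 : l.prod ≠ 1 := by
    have nv : ¬ V D a b := fun v => ne (hA a ha b hb v)
    unfold V at nv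
    push Not at nv
    obtain ⟨c, hc, k | k⟩ := nv
    exacts [key a aE b bE ne c hc k.1 k.2, key b bE a aE ne.symm c hc k.2 k.1]
  have kl : ∀ y ∈ D, Commute y l.prod → y ∈ E := fun y hy k => mx y hy fun f hf => by
    by_contra n
    exact n (comm_of_prod nd lc ((hl f).2 hf) (fun f' hf' n' => h.f2 hA e2 e1 (ED hf) (ED ((hl f').1 hf'))
      hy (EC f hf f' ((hl f').1 hf')) n'.symm (ce f hf) (ce f' ((hl f').1 hf')) k n) k)
  obtain ⟨T, hT⟩ := (pg_closure (fun a ha => h.sq (ED ha)) EC).exists_le_sylow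
  have TE : ∀ y ∈ D, y ∈ (T : Subgroup G) → y ∈ E := fun y hy yT => mx y hy fun f hf =>
    h.comm_of_pg hy (ED hf) T.2 (mul_mem yT (hT (subset_closure hf)))
  have wc : WC (T : Subgroup G) l.prod := by
    refine ⟨hT eA, fun g hg => ?_⟩
    set v := g * l.prod * g⁻¹ with hv
    have v2 : v * v = 1 := by rw [hv, ← cmul, e2]; simp
    have kl' : ∀ y ∈ D, Commute y v → g⁻¹ * y * g ∈ E := fun y hy k =>
      kl _ (by simpa using h.conj g⁻¹ y hy) (by simpa [hv, mul_assoc] using cm g⁻¹ k)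
    have cv : ∀ y, (∀ f ∈ E, Commute y (g * f * g⁻¹)) → Commute y v := fun y k => by
      have : Commute (g⁻¹ * y * g) l.prod := Commute.list_prod_right _ _ fun f hf => by
        simpa [mul_assoc] using cm g⁻¹ (k f ((hl f).1 hf))
      simpa [hv, mul_assoc] using cm g this
    by_cases hc : ∀ f ∈ E, Commute f v
    · have s1 : ∀ f ∈ E, g * f * g⁻¹ ∈ E := fun f hf => mx _ (h.conj g f (ED hf)) fun f' hf' => by
        simpa [mul_assoc] using cm g (EC f hf _ (kl' f' (ED hf') (hc f' hf')))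
      have pe : (l.map (MulAut.conj g)).Perm l := (List.perm_ext_iff_of_nodup
        (nd.map (MulAut.conj g).injective) nd).2 fun x => by
          rw [List.mem_map, hl]
          refine ⟨?_, fun hx => ⟨g⁻¹ * x * g, (hl _).2 (kl' x (ED hx) (hc x hx)), by simp [mul_assoc]⟩⟩
          rintro ⟨y, hy, rfl⟩
          exact s1 y ((hl y).1 hy)
      have pw : l.Pairwise Commute := List.pairwise_iff_forall_sublist.2 fun {a b} hs =>
        lc a (hs.subset (by simp)) b (hs.subset (by simp))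
      have := (pe.symm.prod_eq' pw).symm
      rwa [← map_list_prod] at this
    · exfalso
      push Not at hc
      obtain ⟨f, hf, n⟩ := hc
      have fD := ED hf
      have hf' := h.conj v f fD
      have f'E := TE _ hf' (mul_mem (mul_mem hg (hT (subset_closure hf))) (inv_mem hg))
      have vi : v⁻¹ = v := inv_eq_of_mul_eq_one_right v2
      have ne' : f ≠ v * f * v⁻¹ := fun e => n (conj_eq_iff_commute.1 e.symm).symm
      have c2 := EC f hf _ f'E
      have zv : Commute (f * (v * f * v⁻¹)) v := czz v2 c2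
      set f' := v * f * v⁻¹
      refine n (cv f fun y hy => ?_)
      have yD := h.conj g y (ED hy)
      have yv : Commute (g * y * g⁻¹) v := cm g (ce y hy)
      set y' := g * y * g⁻¹ with hy'
      by_contra n2
      have n3 : y' ≠ f * f' * y' * (f * f')⁻¹ := fun e =>
        n2 (h.comm_mul fD hf' yD c2 ne' (conj_eq_iff_commute.1 e.symm).symm).symm
      have y2D := h.conj (f * f') y' yD
      have y2v : Commute (f * f' * y' * (f * f')⁻¹) v := by simpa only [cfix zv] using cm (f * f') yv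
      have c3 : Commute y' (f * f' * y' * (f * f')⁻¹) := by
        simpa [hy', mul_assoc] using cm g (EC y hy _ (kl' _ y2D y2v))
      exact h.f4 fD hf' yD y2D c2 ne' (fun v => ne' (hA _ fD _ hf' v)) c3 n3
        (czz (h.zsq fD hf' c2) c3) rfl
  refine h.cent_ne e2 e1 (eq_top_iff.2 fun g _ => mem_cent_iff_commute.2 ?_)
  have := zstar2 wc g
  rw [hO, mem_bot, mul_inv_eq_one] at this
  exact conj_eq_iff_commute.1 this

end MC

end H6.Tp
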