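import Cfsg.Agent.H6.ZS

/-! Generalized quaternion Sylow subgroups of order at least sixteen. -/

set_option autoImplicit false
set_option linter.unusedSectionVars false
open scoped MonoidAlgebra ComplexConjugate
open Cfsg H17 H19 Subgroup
open H10 (IsSylowIn)

namespace H6

variable {G : Type*} [Group G] [Finite G]

theorem qs_pair {S : Subgroup G} {a b : G} {n : ℕ} (h : QS S a b n) (hn : 4 ∣ n) :
    ∃ χ ψ : IrrCharacter G, χ ≠ triv G ∧ ψ ≠ triv G ∧
      ∀ g : G, ¬ 4 ∣ orderOf g → (χ : G → ℂ) g - (ψ : G → ℂ) g = 1 := by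
  classical
  obtain ⟨O, _⟩ := exists_val 2
  have := Fintype.ofFinite G
  set A := zpowers a with hA
  have hgen : ∀ x : A, x ∈ zpowers (⟨a, mem_zpowers a⟩ : A) := by
    rintro ⟨_, k, rfl⟩; exact ⟨k, rfl⟩
  have hI : orderOf (Units.mk0 Complex.I Complex.I_ne_zero) = 4 := by
    rw [← orderOf_units, Units.val_mk0, ← Complex.isPrimitiveRoot_I.eq_orderOf]
  set l : A →* ℂˣ := monoidHomOfForallMemZpowers hgen (g' := Units.mk0 Complex.I Complex.I_ne_zero)
    (by rw [hI, ← Subgroup.orderOf_coe, h.ord]; exact hn.mul_left 2)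
  have hl : l ⟨a, mem_zpowers a⟩ = Units.mk0 Complex.I Complex.I_ne_zero :=
    monoidHomOfForallMemZpowers_apply_gen _ _
  have l1 : l ≠ 1 := fun e => by rw [e] at hl; rw [← hl] at hI; simp at hI
  have l2 : l⁻¹ ≠ l := fun e => by
    have := orderOf_dvd_of_pow_eq_one (x := l ⟨a, mem_zpowers a⟩) (n := 2) (by
      rw [pow_two]; nth_rewrite 1 [← e]; simp)
    rw [hl, hI] at this; omega
  have hsq : ∀ u : A, (1 : ℂ) - l u ≠ 0 → (u : G) * u ≠ 1 := fun u h1 h2 => h1 <| by
    obtain ⟨k, rfl⟩ := hgen u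
    have h3 : (a ^ (2 * k)) = 1 := by rw [two_mul, zpow_add]; exact h2
    rw [← orderOf_dvd_iff_zpow_eq_one, h.ord] at h3
    have h4 : (4 : ℤ) ∣ k := by
      refine (Int.natCast_dvd_natCast.2 hn).trans (Int.dvd_of_mul_dvd_mul_left two_ne_zero ?_)
      exact_mod_cast h3
    have h5 : l (⟨a, mem_zpowers a⟩ ^ k) = 1 := by
      rw [map_zpow, hl, ← orderOf_dvd_iff_zpow_eq_one, hI]; exact h4
    simp only [h5, Units.val_one, sub_self]
  set f : A → ℂ := (fun g => ((1 : A →* ℂˣ) g : ℂ)) - fun g => (l g : ℂ) with hf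
  have hfa : ∀ u, f u = 1 - l u := fun u => by simp [hf]
  have hfg : IsGeneralizedCharacter A f := (isIrr_linear _).isGen.sub (isIrr_linear _).isGen
  choose m hm using fun χ : IrrCharacter G => (χ.2.isGen.restrict A).inner_int hfg
  have c0 : (Nat.card A : ℂ) ≠ 0 := card_ne_zero_complex
  have hm1 : ∀ χ : IrrCharacter G, (m χ : ℂ) =
      ∑ u : A, ((Nat.card A : ℂ)⁻¹ * conj (f u)) * (χ : G → ℂ) u := fun χ => by
    rw [← hm, classInner_def, Finset.mul_sum]
    exact Finset.sum_congr rfl fun u _ => by ring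
  have hm2 : ∀ χ : IrrCharacter G, (m χ : ℂ) =
      ∑ u : A, ((Nat.card A : ℂ)⁻¹ * f u) * (χ : G → ℂ) (u : G)⁻¹ := fun χ => by
    rw [← hm, (χ.2.isGen.restrict A).inner_comm hfg, classInner_def, Finset.mul_sum]
    exact Finset.sum_congr rfl fun u _ => by rw [irr_conj, mul_assoc]
  have hsq' : ∀ u : A, (Nat.card A : ℂ)⁻¹ * conj (f u) ≠ 0 → (u : G) * u ≠ 1 := fun u hu =>
    hsq u fun e => hu (by rw [hfa, e, map_zero, mul_zero])
  have hsing : ∀ u : A, (u : G) * u ≠ 1 → 2 ∣ orderOf (u : G) := fun u hu =>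
    (h.pelt u.2).dvd_orderOf fun e => hu (by rw [e, mul_one])
  set B := Finset.univ.filter (· ∈ irr (B0 O G)) with hB
  have h0 : triv G ∈ B := by simp [hB, B0]
  have m0 : m (triv G) = 1 := by
    have := hm (triv G)
    rw [hf, classInner_sub_right] at this
    erw [classInner_units 1 1, classInner_units 1 l] at this
    simp [l1.symm] at this
    exact_mod_cast this.symm
  have h3 : ∑ χ ∈ B, m χ * m χ = 3 := by
    have e1 : ∑ χ ∈ B, (m χ : ℂ) * m χ = classInner f f + classInner (fun u => f u⁻¹) f := by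
      rw [Finset.sum_congr rfl fun χ _ => congrArg₂ (· * ·) (hm1 χ) (hm2 χ), sum_col_mul,
        ← classInner_add_left, classInner_def, Finset.mul_sum]
      refine Finset.sum_congr rfl fun u _ => ?_
      by_cases hu : (Nat.card A : ℂ)⁻¹ * conj (f u) = 0
      · simp only [hu, zero_mul, Finset.sum_const_zero, mul_left_comm (Nat.card A : ℂ)⁻¹, mul_zero]
      have e2 : ∀ v : A, Kr (irr (B0 O G)) u v =
          Nat.card A * ((if v = u then 1 else 0) + if v = u⁻¹ then 1 else 0) := fun v => by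
        rw [h.Kr_eq u.2 v.2 (hsq' u hu)]; simp only [Subtype.ext_iff, coe_inv]; rfl
      simp only [e2, mul_add, Finset.sum_add_distrib, mul_ite, mul_one, mul_zero, Finset.sum_ite_eq',
        Finset.mem_univ, if_true, Pi.add_apply]
      field_simp
    have e2 : (fun u => f u⁻¹) = (fun g => ((1 : A →* ℂˣ) g : ℂ)) - fun g => (l⁻¹ g : ℂ) := by
      funext u; simp [hf]
    have l3 : l⁻¹ ≠ 1 := fun e => l1 (MonoidHom.ext fun g => by simpa using DFunLike.congr_fun e g)
    rw [e2, hf] at e1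
    simp only [classInner_sub_left, classInner_sub_right, classInner_units, l1, l1.symm, l2,
      l3, if_true, if_false] at e1
    have : ((∑ χ ∈ B, m χ * m χ : ℤ) : ℂ) = (3 : ℤ) := by push_cast; rw [e1]; ring
    exact_mod_cast this
  obtain ⟨χ, hχ, ψ, hψ, h1, h2, h3, m1, m2, m3⟩ := norm_three h0 h3 m0
  have key : ∀ g : G, ¬ 4 ∣ orderOf g → 1 + m χ * (χ : G → ℂ) g + m ψ * (ψ : G → ℂ) g = 0 := by
    intro g hg
    have e1 : ∑ ξ ∈ B, m ξ * (ξ : G → ℂ) g = 0 := by
      simp only [hm1]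
      refine sum_col_eq_zero _ _ _ _ fun u hu => ?_
      obtain ⟨x, hx⟩ := exists_isPPart 2 g⁻¹
      have := Kr_eq_zero (B0 O G) (isPPart_self (h.pelt u.2)) hx fun hc => hsq' u hu (by
          obtain ⟨k, hk⟩ := (h.pelt u.2)
          have h4 : orderOf (u : G) ∣ orderOf g := by
            rw [← orderOf_isConj hc, ← orderOf_inv g]
            exact orderOf_dvd_of_mem_zpowers (isPPart_mem_zpowers hx)
          rw [← pow_two, ← orderOf_dvd_iff_pow_eq_one, hk]
          rw [hk] at h4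
          rcases k with _ | _ | k
          · simp
          · simp
          · exact absurd ((Dvd.intro_left (2 ^ k) (by ring)).trans h4) hg)
      rwa [H19.Kr_eq, inv_inv] at this
    rw [sum_eq_three h0 hχ hψ h1 h2 h3 _ fun k a b c d => by simp [m3 k a b c d], m0] at e1
    simpa using e1
  obtain ⟨d, hd⟩ := χ.2.isCharacter.exists_nat_one
  obtain ⟨e, he⟩ := ψ.2.isCharacter.exists_nat_one
  have hd0 : d ≠ 0 := fun h0 => irr_one_ne_zero χ (by rw [hd, h0]; simp)
  have he0 : e ≠ 0 := fun h0 => irr_one_ne_zero ψ (by rw [he, h0]; simp)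
  have k1 := key 1 (by simp)
  rw [hd, he] at k1
  have k2 : (1 : ℤ) + m χ * d + m ψ * e = 0 := by exact_mod_cast k1
  rcases Int.eq_one_or_neg_one_of_mul_eq_one m1 with a1 | a1 <;>
  rcases Int.eq_one_or_neg_one_of_mul_eq_one m2 with a2 | a2
  · rw [a1, a2] at k2; omega
  · refine ⟨ψ, χ, h2, h1, fun g hg => ?_⟩
    have := key g hg
    rw [a1, a2] at this
    push_cast at this
    linear_combination -this
  · refine ⟨χ, ψ, h1, h2, fun g hg => ?_⟩
    have := key g hg
    rw [a1, a2] at this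
    push_cast at this
    linear_combination -this
  · rw [a1, a2] at k2; omega

theorem qs_commutator {S : Subgroup G} {a b : G} {n : ℕ} (h : QS S a b n) :
    ⁅S, S⁆ = zpowers (a * a) := by
  apply le_antisymm
  · rw [commutator_le]
    have hA : ∀ k : ℤ, a ^ (2 * k) ∈ zpowers (a * a) := fun k => ⟨k, by simp only [zpow_mul]; rw [zpow_two]⟩
    intro x hx y hy
    have hb := mul_zpow_of_inverts h.inv
    have hb' : ∀ k : ℤ, b * a ^ k * b⁻¹ = a ^ (-k) := fun k => by rw [hb]; group
    rw [commutatorElement_def]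
    obtain ⟨i, rfl | rfl⟩ := h.all x hx <;> obtain ⟨j, rfl | rfl⟩ := h.all y hy
    · convert hA 0 using 1; group
    · convert hA i using 1
      calc a ^ i * (a ^ j * b) * (a ^ i)⁻¹ * (a ^ j * b)⁻¹ = a ^ (i + j) * (b * a ^ (-i) * b⁻¹) * a ^ (-j) := by group
        _ = _ := by rw [hb']; group
    · convert hA (-j) using 1
      calc a ^ i * b * a ^ j * (a ^ i * b)⁻¹ * (a ^ j)⁻¹ = a ^ i * (b * a ^ j * b⁻¹) * a ^ (-i - j) := by group
        _ = _ := by rw [hb']; group
    · convert hA (i - j) using 1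
      calc a ^ i * b * (a ^ j * b) * (a ^ i * b)⁻¹ * (a ^ j * b)⁻¹
          = a ^ i * (b * a ^ (j - i) * b⁻¹) * a ^ (-j) := by group
        _ = _ := by rw [hb']; group
  · rw [zpowers_le]
    have := commutator_mem_commutator h.ha h.hb
    rw [commutatorElement_def] at this
    convert this using 1
    have h2 := conj_zpow_of_inverts h.inv (-1)
    calc a * a = a * (a ^ (-1 : ℤ))⁻¹ := by group
      _ = _ := by rw [← h2]; group

theorem centralizer_zpowers' (a : G) :
    centralizer ((zpowers a : Subgroup G) : Set G) = centralizer ({a} : Set G) := by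
  ext g
  rw [mem_centralizer_iff_commute, mem_cent_iff_commute]
  exact ⟨fun h => h a (mem_zpowers a), by rintro h _ ⟨k, rfl⟩; exact h.zpow_right k⟩

theorem qs_sq_ne {S : Subgroup G} {a b : G} {n : ℕ} (h : QS S a b (2 ^ (n + 2))) :
    a * a * (a * a) ≠ 1 := by
  intro h1
  rw [← pow_four_eq, ← orderOf_dvd_iff_pow_eq_one, h.ord] at h1
  have := Nat.le_of_dvd (by norm_num) h1
  have h2 : 0 < 2 ^ n := by positivity
  rw [pow_add] at this
  omega

theorem qs_wc {S : Subgroup G} {a b : G} {n : ℕ} (h : QS S a b n) : WC S (a ^ n) :=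
  wc_of_unique (S.pow_mem h.ha n) h.ord2 fun _ => h.unique

end H6
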