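import Cfsg.Agent.H6.Rud
import Cfsg.Agent.H6.Act
import Cfsg.Agent.H6.Misc
import Cfsg.Agent.H6.Count
import Cfsg.Agent.H6.Q8
import Cfsg.Agent.H17.Central

/-! Automorphisms of 2-groups with three involutions. -/

set_option autoImplicit false
set_option linter.unusedSectionVars false

namespace H6.Tri3

open Subgroup H16 H6.Rud
open scoped commutatorElement

variable {X : Type*} [Group X] [Finite X]

theorem pick {N U : Subgroup X} (h : 4 * Nat.card N < Nat.card U) (hN : N ≤ U) {a b c : X} (ha : a ∈ U)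
    (hb : b ∈ U) (hc : c ∈ U) : ∃ y ∈ U, y ∉ N ∧ a * y ∉ N ∧ b * y ∉ N ∧ c * y ∉ N := by
  classical
  haveI := Fintype.ofFinite (U ⧸ N.subgroupOf U)
  have h1 : 4 < Fintype.card (U ⧸ N.subgroupOf U) := by
    rw [← card_mul_relIndex hN, mul_comm] at h
    rw [← Nat.card_eq_fintype_card]
    exact lt_of_mul_lt_mul_left h (Nat.zero_le _)
  obtain ⟨q, -, hq⟩ := Finset.exists_mem_notMem_of_card_lt_card (s := ({((1 : U) : U ⧸ N.subgroupOf U),
    QuotientGroup.mk (⟨a, ha⟩ : U)⁻¹, QuotientGroup.mk (⟨b, hb⟩ : U)⁻¹, QuotientGroup.mk (⟨c, hc⟩ : U)⁻¹} :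
      Finset (U ⧸ N.subgroupOf U)))
    (t := Finset.univ) (lt_of_le_of_lt Finset.card_le_four h1)
  obtain ⟨y, rfl⟩ := QuotientGroup.mk_surjective q
  simp only [Finset.mem_insert, Finset.mem_singleton, not_or, eq_comm (a := (y : U ⧸ N.subgroupOf U)),
    QuotientGroup.eq, inv_inv, mem_subgroupOf] at hq
  exact ⟨y, y.2, by simpa using hq.1, hq.2⟩

structure CD (E D : Subgroup X) : Prop where
  pg : IsPGroup 2 X
  four : Nat.card E = 4
  memE : ∀ x, x ∈ E ↔ x * x = 1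
  ED : E ≤ D
  cen : D ≤ C[E]
  sq : ∀ x ∈ D, x * x ∈ E

/-- the fixed points of an automorphism -/
def Fix (α : MulAut X) : Subgroup X := α.toMonoidHom.eqLocus (MonoidHom.id X)
theorem mem_Fix {α : MulAut X} {x : X} : x ∈ Fix α ↔ α x = x := Iff.rfl

theorem modEq {α : MulAut X} {p : ℕ} [Fact p.Prime] (hα : orderOf α = p) (S : Set X) (hS : ∀ x ∈ S, α x ∈ S) :
    S.ncard ≡ (S ∩ Fix α).ncard [MOD p] := by
  have := H6.ncard_modEq_fixedBy (G := MulAut X) (Ω := X) (p := p) (g := α) (k := 1)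
    (by rw [pow_one, ← hα, pow_orderOf_eq_one]) S (Set.toFinite _) hS
  rwa [show MulAction.fixedBy X α = (Fix α : Set X) from Set.ext fun x => Iff.rfl] at this

theorem mem_zp {a g : X} (ha : a * a = 1) (h : g ∈ zpowers a) : g = 1 ∨ g = a := (H6.mem_zpowers_ord2 ha).1 h

theorem ncard_coe (U : Subgroup X) : (U : Set X).ncard = Nat.card U := rfl

theorem modEq' {α : MulAut X} {p : ℕ} [Fact p.Prime] (hα : orderOf α = p) (U : Subgroup X)
    (hS : ∀ x ∈ U, α x ∈ U) : Nat.card U ≡ Nat.card ↥(U ⊓ Fix α) [MOD p] := modEq hα U hS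

def fib (U : Subgroup X) (c : X) : Set X := {x | x ∈ U ∧ x * x = c}

namespace CD
variable {E D : Subgroup X} (h : CD E D)
include h

theorem comm_mem {u v : X} (hu : u ∈ D) (hv : v ∈ D) : ⁅u, v⁆ ∈ E :=
  comm_mem_of_sq h.sq (commutator_mem_commutator hu hv)

theorem three {c : X} (hc : c ∈ E) (c1 : c ≠ 1) {N U : Subgroup X} (h1 : N ≤ U) (h2 : U ≤ D)
    (h3 : ∀ y ∈ U, y * y ∈ zpowers c → y ∈ N) : Nat.card U ≤ 4 * Nat.card N := by
  by_contra! hlt
  have hr : (zpowers c).relIndex E = 2 := by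
    have := card_mul_relIndex (zpowers_le.2 hc)
    rw [card_zpowers, H6.ord2_of ((h.memE c).1 hc) c1, h.four] at this
    omega
  have s : ∀ y ∈ U, y ∉ N → sg (zpowers c) (y * y) = -1 := fun y hy hn =>
    (Int.units_eq_one_or _).resolve_left fun e => hn (h3 y hy (sg_eq_one.1 e))
  have B : ∀ x ∈ U, ∀ y ∈ U, x ∉ N → y ∉ N → x * y ∉ N → sg (zpowers c) ⁅x⁻¹, y⁆ = -1 := by
    intro x hx y hy a b d
    have e := s _ (mul_mem hx hy) d
    have h4 := h.comm_mem (inv_mem (h2 hx)) (h2 hy)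
    rw [show x * y * (x * y) = x * x * ⁅x⁻¹, y⁆ * (y * y) by simp only [commutatorElement_def]; group,
      sg_mul hr (mul_mem (h.sq _ (h2 hx)) h4) (h.sq _ (h2 hy)), sg_mul hr (h.sq _ (h2 hx)) h4,
      s x hx a, s y hy b] at e
    simpa using e
  obtain ⟨x, hx, x1, -⟩ := pick hlt h1 (one_mem U) (one_mem U) (one_mem U)
  obtain ⟨y, hy, y1, y2, -⟩ := pick hlt h1 hx hx hx
  obtain ⟨w, hw, w1, w2, w3, w4⟩ := pick hlt h1 hx hy (mul_mem hx hy)
  have e := B x hx _ (mul_mem hy hw) x1 w3 (by rwa [← mul_assoc])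
  have h5 := h.comm_mem (inv_mem (h2 hx)) (h2 hw)
  rw [show ⁅x⁻¹, y * w⁆ = ⁅x⁻¹, y⁆ * (y * ⁅x⁻¹, w⁆ * y⁻¹) by simp only [commutatorElement_def]; group,
    ← mem_cent.1 (h.cen (h2 hy)) _ h5, mul_inv_cancel_right, sg_mul hr (h.comm_mem (inv_mem (h2 hx)) (h2 hy)) h5,
    B x hx y hy x1 y1 y2, B x hx w hw x1 w1 w2] at e
  exact absurd e (by decide)

theorem card_N {x : X} (hx : x ∈ D) (h1 : x ∉ E) : Nat.card ↥(E ⊔ zpowers x) = 8 := by
  have h2 := relIndex_le_two (cent_le_norm E (h.cen hx)) (h.sq x hx)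
  have h3 := relIndex_pos E (E ⊔ zpowers x)
  have h4 : E.relIndex (E ⊔ zpowers x) ≠ 1 := fun e => h1 (relIndex_eq_one.1 e (mem_sup_right (mem_zpowers x)))
  rw [← card_mul_relIndex le_sup_left, h.four, show E.relIndex (E ⊔ zpowers x) = 2 by omega]

theorem N_le {x : X} (hx : x ∈ D) : E ⊔ zpowers x ≤ D ⊓ C1[x] :=
  sup_le (le_inf h.ED (le_cent1.2 (h.cen hx))) (zpowers_le.2 ⟨hx, cent1_self x⟩)

theorem card_C {x : X} (hx : x ∈ D) (h1 : x ∉ E) : Nat.card ↥(D ⊓ C1[x]) ≤ 32 := by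
  have := h.three (h.sq x hx) (fun e => h1 ((h.memE x).2 e)) (h.N_le hx) inf_le_left fun y hy e => by
    rcases mem_zp ((h.memE _).1 (h.sq x hx)) e with e | e
    · exact mem_sup_left ((h.memE y).2 e)
    · refine (mul_mem_cancel_left (mem_sup_right (inv_mem (mem_zpowers x)))).1 (mem_sup_left ((h.memE _).2 ?_))
      have c : Commute x⁻¹ y := (Commute.symm (mem_cent1.1 hy.2)).inv_left
      rw [mul_assoc, ← mul_assoc y, ← c.eq, mul_assoc, e]; group
  rwa [h.card_N hx h1] at this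

theorem card_D : Nat.card D ≤ 128 := by
  by_cases e : D ≤ E
  · exact (card_le e).trans (by rw [h.four]; norm_num)
  obtain ⟨x, hx, h1⟩ := SetLike.not_le_iff_exists.1 e
  have := H9.card_le_mul_card_centralizer (H := D) (N := E) (x := x) fun g hg => h.comm_mem hg hx
  have := h.card_C hx h1
  rw [h.four] at *
  omega

theorem four_dvd {U : Subgroup X} (h1 : E ≤ U) (h2 : U ≤ D) (c : X) : 4 ∣ (fib U c).ncard := by
  rw [← h.four]
  refine H6.card_dvd_ncard_of_free E _ (Set.toFinite _) (fun e he x hx => ⟨mul_mem (h1 he) hx.1, ?_⟩)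
    fun e _ x _ e1 => by simpa using e1
  rw [smul_eq_mul, mul_assoc, ← mul_assoc x, ← mem_cent.1 (h.cen (h2 hx.1)) e he, mul_assoc, hx.2, ← mul_assoc,
    (h.memE e).1 he, one_mul]

theorem card_eq {U : Subgroup X} (h1 : E ≤ U) (h2 : U ≤ D) {a b : X} (ha : orderOf a = 2) (hb : orderOf b = 2)
    (hab : a ≠ b) (H : ∀ x, x ∈ E ↔ x = 1 ∨ x = a ∨ x = b ∨ x = a * b) :
    Nat.card U = 4 + (fib U a).ncard + (fib U b).ncard + (fib U (a * b)).ncard := by
  have a1 := H6.ord2_ne_one ha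
  have b1 := H6.ord2_ne_one hb
  have e : (U : Set X) = (E : Set X) ∪ fib U a ∪ fib U b ∪ fib U (a * b) := by
    ext x
    constructor
    · intro hx
      rcases (H _).1 (h.sq x (h2 hx)) with e | e | e | e
      exacts [.inl (.inl (.inl ((h.memE x).2 e))), .inl (.inl (.inr ⟨hx, e⟩)), .inl (.inr ⟨hx, e⟩), .inr ⟨hx, e⟩]
    · rintro (((hx | hx) | hx) | hx)
      exacts [h1 hx, hx.1, hx.1, hx.1]
  have ab1 : a * b ≠ 1 := fun e => hab (by rw [eq_inv_of_mul_eq_one_left e, H6.ord2_inv hb])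
  rw [← h.four, ← ncard_coe, ← ncard_coe, e, Set.ncard_union_eq, Set.ncard_union_eq,
    Set.ncard_union_eq]
  all_goals rw [Set.disjoint_left]
  · exact fun x h3 h4 => a1 (h4.2 ▸ (h.memE x).1 h3)
  · rintro x (h3 | h3) h4
    exacts [b1 (h4.2 ▸ (h.memE x).1 h3), hab (h3.2 ▸ h4.2)]
  · rintro x ((h3 | h3) | h3) h4
    · exact ab1 (h4.2 ▸ (h.memE x).1 h3)
    · exact b1 (by simpa using h3.2.symm.trans h4.2)
    · exact a1 (by simpa using h3.2.symm.trans h4.2)

theorem fix {α : MulAut X} (ho : (orderOf α).Coprime 2) {g : X} (e : g⁻¹ * α g ∈ Fix α) : α g = g := by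
  obtain ⟨k, hk⟩ := IsPGroup.iff_orderOf.1 h.pg (g⁻¹ * α g)
  exact H3.aut_fix_of_fix e (hk ▸ ho.pow_right k)

theorem big {α : MulAut X} {p : ℕ} [hp : Fact p.Prime] (hα : orderOf α = p) (h5 : 5 ≤ p)
    (hE : E ≤ Fix α) (hD : ∀ x ∈ D, α x ∈ D) (hn : ¬ D ≤ Fix α) :
    p = 5 ∧ Nat.card D = 64 ∧ ∀ c ∈ E, c ≠ 1 → (fib D c).ncard = 20 := by
  have ho : p.Coprime 2 := (Nat.coprime_primes hp.out Nat.prime_two).2 (by omega)
  have hF : D ⊓ Fix α ≤ E := fun x hx => by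
    by_contra h1
    have hU : ∀ y ∈ D ⊓ C1[x], α y ∈ D ⊓ C1[x] := fun y hy => ⟨hD y hy.1, mem_cent1.2 (by
      rw [← mem_Fix.1 hx.2, ← map_mul, ← map_mul, mem_cent1.1 hy.2])⟩
    have m := modEq' hα _ hU
    have c1 := card_mul_relIndex (inf_le_left (a := D ⊓ C1[x]) (b := Fix α))
    have c2 := card_le (le_inf (h.N_le hx.1) (sup_le hE (zpowers_le.2 hx.2)))
    have c3 := h.card_C hx.1 h1
    rw [h.card_N hx.1 h1] at c2
    obtain ⟨k, hk⟩ := IsPGroup.iff_card.1 (h.pg.to_subgroup (D ⊓ C1[x] ⊓ Fix α))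
    have c4 := relIndex_pos (D ⊓ C1[x] ⊓ Fix α) (D ⊓ C1[x])
    have c5 : p ∣ (D ⊓ C1[x] ⊓ Fix α).relIndex (D ⊓ C1[x]) - 1 := by
      have := (Nat.modEq_iff_dvd' (card_le inf_le_left)).1 m.symm
      rw [← c1, ← Nat.mul_sub_one, hk] at this
      exact (ho.pow_right k).dvd_of_dvd_mul_left this
    have c6 : (D ⊓ C1[x] ⊓ Fix α).relIndex (D ⊓ C1[x]) = 1 := by
      by_contra e
      have := Nat.le_of_dvd (by omega) c5
      have := Nat.mul_le_mul c2 (show 6 ≤ (D ⊓ C1[x] ⊓ Fix α).relIndex (D ⊓ C1[x]) by omega)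
      omega
    refine hn fun y hy => h.fix (hα ▸ ho) (relIndex_eq_one.1 c6
      (mem_inf.2 ⟨mul_mem (inv_mem hy) (hD y hy), mem_cent1.2 ?_⟩)).2
    have := mem_Fix.1 (hE (h.comm_mem hx.1 hy))
    simp only [commutatorElement_def, map_mul, map_inv, mem_Fix.1 hx.2, mul_assoc, mul_right_inj] at this
    calc _ = y⁻¹ * (α y * (x⁻¹ * (α y)⁻¹))⁻¹ * α y := by group
      _ = _ := by rw [this]; group
  have hm := modEq' hα D hD
  rw [le_antisymm hF (le_inf h.ED hE), h.four] at hm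
  have hd : ∀ c ∈ E, c ≠ 1 → 4 * p ∣ (fib D c).ncard := fun c hc c1 => by
    refine ((ho.pow_right 2).symm).mul_dvd_of_dvd_of_dvd (h.four_dvd h.ED le_rfl c) ?_
    have := modEq hα (fib D c) fun x hx => ⟨hD x hx.1, by rw [← map_mul, hx.2, mem_Fix.1 (hE hc)]⟩
    rw [show fib D c ∩ Fix α = ∅ from Set.eq_empty_iff_forall_notMem.2 fun x hx =>
      c1 (hx.1.2 ▸ (h.memE x).1 (hF ⟨hx.1.1, hx.2⟩)), Set.ncard_empty] at this
    exact (Nat.modEq_zero_iff_dvd).1 this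
  have h4 : 4 < Nat.card D := h.four ▸ card_lt (lt_of_le_of_ne h.ED fun e => hn (e ▸ hE))
  have hp4 : p ∣ Nat.card D - 4 := (Nat.modEq_iff_dvd' h4.le).1 hm.symm
  obtain ⟨k, hk⟩ := IsPGroup.iff_card.1 (h.pg.to_subgroup D)
  have k7 : k ≤ 7 := (Nat.pow_le_pow_iff_right (a := 2) (by norm_num)).1 (hk ▸ h.card_D)
  have k3 : 2 < k := (Nat.pow_lt_pow_iff_right (a := 2) (by norm_num)).1 (hk ▸ h4)
  have k5 : 5 ≤ k := by
    by_contra e
    rw [hk] at hp4
    have := Nat.le_of_dvd (by interval_cases k <;> norm_num) hp4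
    interval_cases k <;> norm_num at this hp4 <;> interval_cases p <;>
      first | omega | exact absurd hp.out (by norm_num)
  have hpos : ∀ c ∈ E, c ≠ 1 → 4 * p ≤ (fib D c).ncard := fun c hc c1 => by
    refine Nat.le_of_dvd (Nat.pos_of_ne_zero fun e => ?_) (hd c hc c1)
    have := h.three hc c1 h.ED le_rfl fun y hy e1 => by
      rcases mem_zp ((h.memE _).1 hc) e1 with e1 | e1
      · exact (h.memE y).2 e1
      · exact absurd ((Set.ncard_eq_zero (Set.toFinite _)).1 e) (Set.Nonempty.ne_empty ⟨y, hy, e1⟩)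
    have : 2 ^ 5 ≤ 2 ^ k := Nat.pow_le_pow_right (by norm_num) k5
    rw [h.four] at *
    omega
  obtain ⟨a, b, ha, hb, hab, -, H⟩ := H6.kleinFour_elts (H6.isKleinFour_of_card h.four fun x => (h.memE x).1)
  have ab1 : a * b ≠ 1 := fun e => hab (by rw [eq_inv_of_mul_eq_one_left e, H6.ord2_inv hb])
  have e := h.card_eq h.ED le_rfl ha hb hab H
  have p1 := hpos a ((H _).2 (by simp)) (H6.ord2_ne_one ha)
  have p2 := hpos b ((H _).2 (by simp)) (H6.ord2_ne_one hb)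
  have p3 := hpos _ ((H _).2 (by simp)) ab1
  rw [hk] at hp4 e
  have : p = 5 ∧ k = 6 := by
    have : p ≤ 10 := by interval_cases k <;> omega
    interval_cases k <;> interval_cases p <;> omega
  obtain ⟨rfl, rfl⟩ := this
  refine ⟨rfl, hk, fun c hc c1 => ?_⟩
  rcases (H c).1 hc with rfl | rfl | rfl | rfl
  · exact absurd rfl c1
  all_goals omega

theorem no_three {α : MulAut X} (hα : orderOf α = 3) (hE : E ≤ Fix α) (hD : ∀ x ∈ D, α x ∈ D)
    (h1 : Nat.card D = 64) (h2 : ∀ c ∈ E, c ≠ 1 → (fib D c).ncard = 20) : D ≤ Fix α := by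
  haveI : Fact (Nat.Prime 3) := ⟨Nat.prime_three⟩
  have hU := le_inf h.ED hE
  have hpos : ∀ c ∈ E, c ≠ 1 → 8 ≤ (fib (D ⊓ Fix α) c).ncard := fun c hc c1 => by
    have m := modEq hα (fib D c) fun x hx => ⟨hD x hx.1, by rw [← map_mul, hx.2, mem_Fix.1 (hE hc)]⟩
    rw [h2 c hc c1, show fib D c ∩ Fix α = fib (D ⊓ Fix α) c from
      Set.ext fun x => ⟨fun a => ⟨⟨a.1.1, a.2⟩, a.1.2⟩, fun a => ⟨⟨a.1.1, a.2⟩, a.1.2⟩⟩, Nat.ModEq] at m
    have := h.four_dvd hU inf_le_left c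
    omega
  obtain ⟨a, b, ha, hb, hab, -, H⟩ := H6.kleinFour_elts (H6.isKleinFour_of_card h.four fun x => (h.memE x).1)
  have ab1 : a * b ≠ 1 := fun e => hab (by rw [eq_inv_of_mul_eq_one_left e, H6.ord2_inv hb])
  have e := h.card_eq hU inf_le_left ha hb hab H
  have p1 := hpos a ((H _).2 (by simp)) (H6.ord2_ne_one ha)
  have p2 := hpos b ((H _).2 (by simp)) (H6.ord2_ne_one hb)
  have p3 := hpos _ ((H _).2 (by simp)) ab1
  have m := modEq' hα D hD
  have d := card_dvd (inf_le_left (a := D) (b := Fix α))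
  rw [h1] at m d
  have := Nat.le_of_dvd (by norm_num) d
  refine inf_eq_left.1 (eq_of_le_of_card inf_le_left ?_)
  rw [h1]
  rw [Nat.ModEq] at m
  generalize Nat.card ↥(D ⊓ Fix α) = n at *
  have : 28 ≤ n := by omega
  interval_cases n <;> omega

end CD

theorem exists_cd (hX : IsPGroup 2 X) (h3 : Nat.card {x : X // orderOf x = 2} = 3) :
    ∃ E D : Subgroup X, CD E D ∧ (∀ α : MulAut X, ∀ x ∈ D, α x ∈ D) ∧
      ∀ α : MulAut X, (orderOf α).Coprime 2 → D ≤ Fix α → α = 1 := by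
  have h3' : {x : X | orderOf x = 2}.ncard = 3 := h3
  obtain ⟨z, -, hz, hc⟩ := H6.exists_central_ord2 (T := (⊤ : Subgroup X)) (hX.to_subgroup _) fun e => by
    obtain ⟨x, y, w, -, -, -, e1⟩ := Set.ncard_eq_three.1 h3'
    exact H6.ord2_ne_one (e1.ge (by simp) : orderOf x = 2) (eq_one_of_mem_bot e (mem_top x))
  obtain ⟨t, ht, tz⟩ : ∃ t : X, orderOf t = 2 ∧ t ≠ z := by
    obtain ⟨t, ht, tz⟩ := Set.exists_ne_of_one_lt_ncard (s := {x : X | orderOf x = 2}) (by omega) z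
    exact ⟨t, ht, tz⟩
  have hK := H6.isKleinFour_closure hz ht tz.symm (hc t trivial)
  set E := closure ({z, t} : Set X) with hE
  have memE : ∀ x, x ∈ E ↔ x * x = 1 := fun x => ⟨H6.kleinFour_mul_self hK, fun e => by
    by_cases x1 : x = 1
    · rw [x1]; exact one_mem _
    have : (E : Set X) \ {1} = {x : X | orderOf x = 2} := Set.eq_of_subset_of_ncard_le
      (fun y hy => H6.ord2_of (H6.kleinFour_mul_self hK hy.1) hy.2) (by
        have := Set.ncard_sdiff_singleton_add_one (s := (E : Set X)) E.one_mem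
        rw [ncard_coe, hK.card_four] at this
        omega)
    exact (this.ge (H6.ord2_of e x1)).1⟩
  haveI : E.Characteristic := characteristic_iff_le_comap.2 fun α x hx => (memE _).2 (by
    change α x * α x = 1
    rw [← map_mul, (memE x).1 hx, map_one])
  haveI : IsMulCommutative E := comm_iff.2 fun x hx => mem_cent.2 fun y hy => H6.kleinFour_commute hK hy hx
  obtain ⟨H, hH, h1, h2, h4, h5⟩ := H3.exists_critical hX E
  have hcm : ∀ x ∈ H, ∀ y ∈ H, ⁅x, y⁆ ∈ C[H] := fun x hx y _ => (h4 (commutator_mem_commutator hx trivial)).2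
  let D : Subgroup X :=
    { carrier := {x | x ∈ H ∧ x * x ∈ E}
      one_mem' := ⟨one_mem _, by simp⟩
      inv_mem' := fun hx => ⟨inv_mem hx.1, by rw [← mul_inv_rev]; exact inv_mem hx.2⟩
      mul_mem' := fun {x y} hx hy => ⟨mul_mem hx.1 hy.1, by
        rw [show x * y * (x * y) = x * x * ⁅x⁻¹, y⁆ * (y * y) by simp only [commutatorElement_def]; group]
        refine mul_mem (mul_mem hx.2 ((memE _).2 ?_)) hy.2
        have c1 := mem_cent.1 (hcm _ (inv_mem hx.1) _ hy.1) _ hx.1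
        have c2 := mem_cent.1 (h2 _ (inv_mem hx.1)) _ hy.1
        calc _ = x⁻¹ * (x * ⁅x⁻¹, y⁆) * ⁅x⁻¹, y⁆ := by group
          _ = x⁻¹ * ⁅x⁻¹, y⁆ * x * ⁅x⁻¹, y⁆ := by rw [c1]; group
          _ = x⁻¹ ^ 2 * y * (x⁻¹ ^ 2)⁻¹ * y⁻¹ := by
            simp only [commutatorElement_def, sq, mul_inv_rev, inv_inv, mul_assoc, inv_mul_cancel_left,
              mul_inv_cancel_left]
          _ = 1 := by rw [← c2]; group⟩ }
  have ch : ∀ (N : Subgroup X) [N.Characteristic] (α : MulAut X), ∀ x ∈ N, α x ∈ N := fun N hN α x hx =>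
    characteristic_iff_le_comap.1 hN α hx
  refine ⟨E, D, ⟨hX, hK.card_four, memE, fun x hx => ⟨(h1 hx).1, by rw [(memE x).1 hx]; exact one_mem _⟩,
    fun x hx => mem_cent.2 fun y hy => (mem_cent.1 (h1 hy).2 x hx.1).symm, fun x hx => hx.2⟩,
    fun α x hx => ⟨ch H α x hx.1, by rw [← map_mul]; exact ch E α _ hx.2⟩, fun α ho hD => ?_⟩
  refine H3.aut_eq_one_of_fix_selfCentralizing hX H h5 ho fun x hx => ?_
  have := H3.aut_eq_one_of_fix_omega (hX.to_subgroup H) (a := MulAut.characteristic H α)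
    (ho.coprime_dvd_left (orderOf_map_dvd _ _)) fun y hy => Subtype.ext (hD ⟨y.2, (memE _).2 (by
      rcases hy with e | ⟨-, e⟩
      · have : (y : X) * y = 1 := by rw [← sq]; exact congrArg Subtype.val e
        rw [this, mul_one]
      · have : (y : X) ^ 4 = 1 := congrArg Subtype.val e
        rw [← this]; simp only [pow_succ, pow_zero, one_mul, mul_assoc])⟩)
  exact congrArg Subtype.val (DFunLike.congr_fun this ⟨x, hx⟩)

theorem solvable (hX : IsPGroup 2 X) (h3 : Nat.card {x : X // orderOf x = 2} = 3) :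
    Group.IsSolvable (MulAut X) := by
  obtain ⟨E, D, h, hD, h1⟩ := exists_cd hX h3
  let φ : MulAut X →* Equiv.Perm {x : X // orderOf x = 2} := MonoidHom.mk'
    (fun α => Equiv.Perm.subtypePerm α.toEquiv fun x => by simp) fun _ _ => rfl
  haveI : Group.IsSolvable (Equiv.Perm {x : X // orderOf x = 2}) :=
    H17.isSolvable_of_two_primes Nat.prime_two Nat.prime_three fun r hr e => by
      rw [Nat.card_perm, h3] at e
      have := Nat.le_of_dvd (by norm_num) e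
      interval_cases r <;> simp_all (config := {decide := true})
  have hE : ∀ α ∈ φ.ker, E ≤ Fix α := fun α hα x hx => by
    by_cases x1 : x = 1
    · rw [x1]; exact one_mem _
    · exact congrArg Subtype.val (DFunLike.congr_fun (MonoidHom.mem_ker.1 hα) ⟨x, H6.ord2_of ((h.memE x).1 hx) x1⟩)
  have hn : ∀ (α : MulAut X) (p : ℕ), p.Prime → p ≠ 2 → orderOf α = p → ¬ D ≤ Fix α := fun α p hp p2 e e1 => by
    rw [h1 α (e ▸ (Nat.coprime_primes hp Nat.prime_two).2 p2) e1, orderOf_one] at e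
    exact hp.one_lt.ne e
  have h5 : ∀ r : ℕ, r.Prime → r ∣ Nat.card φ.ker → r ≠ 2 → r ≠ 3 →
      r = 5 ∧ Nat.card D = 64 ∧ ∀ c ∈ E, c ≠ 1 → (fib D c).ncard = 20 := fun r hr e r2 r3 => by
    haveI := Fact.mk hr
    obtain ⟨α, hα, ho⟩ := exists_orderOf hr e
    exact h.big ho (hr.five_le_of_ne_two_of_ne_three r2 r3) (hE α hα) (hD α) (hn α r hr r2 ho)
  haveI : Group.IsSolvable φ.ker := by
    by_cases e : ∀ r : ℕ, r.Prime → r ∣ Nat.card φ.ker → r = 2 ∨ r = 3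
    · exact H17.isSolvable_of_two_primes Nat.prime_two Nat.prime_three e
    push Not at e
    obtain ⟨r, hr, e, r2, r3⟩ := e
    obtain ⟨-, c1, c2⟩ := h5 r hr e r2 r3
    refine H17.isSolvable_of_two_primes Nat.prime_two Nat.prime_five fun s hs e => ?_
    by_cases s2 : s = 2
    · exact Or.inl s2
    refine Or.inr (h5 s hs e s2 ?_).1
    rintro rfl
    obtain ⟨α, hα, ho⟩ := exists_orderOf hs e
    exact hn α 3 hs s2 ho (h.no_three ho (hE α hα) (hD α) c1 c2)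
  exact Group.isSolvable_of_ker_le_range φ.ker.subtype φ (by simp)

end H6.Tri3
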